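import Mathlib
import Cfsg.Prelude.Def_OddOrderLocal
import Cfsg.Agent.Lib.Helper35.BG.Basic
import Cfsg.Agent.Lib.Helper35.BG.Hall
import Cfsg.Agent.Lib.Helper74.BG.Tools
import Cfsg.Agent.Lib.Helper67.BG.Basics
import Cfsg.Agent.Lib.Helper67.BG.HallUtil

/-!
Supply lemmas for the "L-side" of B&G 13.12 (S1430 campaign), pure finite group theory — helper41.

* `le_normalizer_of_conj_mem` : a subgroup all of whose elements conjugate `H` into `H` normalizes `H`.
* `normalizes_fix` : if `Y ≤ F ≤ N(T)` and `[F,F]` centralizes `T`, then `F` normalizes `C_T(Y)`.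
* `unique_central` : if `A0` is the only subgroup of order `r` in the centre of the `r`-group `R`,
  then `A0` is central in `R` and `N(R) ≤ N(A0)`.
* `exists_compl_ge_normalizer` : a complement `F` of a normal Hall subgroup `K` of `L` with
  `Y ≤ F ≤ N(T)` for a `Y`-invariant Sylow subgroup `T` of `K` (Frattini + Hall).
-/

set_option autoImplicit false

namespace Cfsg.Agent.Lib.Helper41.BG12

open Cfsg
open scoped commutatorElement Pointwise

universe u

variable {G : Type u} [Group G]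

theorem le_normalizer_of_conj_mem (F H : Subgroup G)
    (h : ∀ f ∈ F, ∀ x ∈ H, f * x * f⁻¹ ∈ H) : F ≤ Subgroup.normalizer (H : Set G) := by
  intro f hf
  rw [Subgroup.mem_normalizer_iff]
  intro x
  constructor
  · exact h f hf x
  · intro hx
    have h1 := h f⁻¹ (F.inv_mem hf) _ hx
    have h2 : f⁻¹ * (f * x * f⁻¹) * f⁻¹⁻¹ = x := by group
    rw [h2] at h1
    exact h1

/-- If `Y ≤ F ≤ N(T)` and `[F,F]` centralizes `T`, then `F` normalizes `C_T(Y)`. -/
theorem normalizes_fix (F Y T : Subgroup G) (hFT : F ≤ Subgroup.normalizer (T : Set G))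
    (hYF : Y ≤ F) (hc : ⁅F, F⁆ ≤ Subgroup.centralizer (T : Set G)) :
    F ≤ Subgroup.normalizer ((T ⊓ Subgroup.centralizer (Y : Set G) : Subgroup G) : Set G) := by
  apply le_normalizer_of_conj_mem
  intro f hf x hx
  have hxT : x ∈ T := (Subgroup.mem_inf.mp hx).1
  have hxY : x ∈ Subgroup.centralizer (Y : Set G) := (Subgroup.mem_inf.mp hx).2
  refine Subgroup.mem_inf.mpr ⟨(Subgroup.mem_normalizer_iff.mp (hFT hf) x).mp hxT, ?_⟩
  rw [Subgroup.mem_centralizer_iff]
  intro y hy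
  have hyx : y * x = x * y := (Subgroup.mem_centralizer_iff.mp hxY) y hy
  have hcm : ⁅y⁻¹, f⁻¹⁆ ∈ ⁅F, F⁆ :=
    Subgroup.commutator_mem_commutator (F.inv_mem (hYF hy)) (F.inv_mem hf)
  have hcx : x * ⁅y⁻¹, f⁻¹⁆ = ⁅y⁻¹, f⁻¹⁆ * x := (Subgroup.mem_centralizer_iff.mp (hc hcm)) x hxT
  have h1 : y * f = f * (y * ⁅y⁻¹, f⁻¹⁆) := by
    rw [commutatorElement_def]; group
  calc y * (f * x * f⁻¹) = (y * f) * x * f⁻¹ := by group
    _ = f * (y * ⁅y⁻¹, f⁻¹⁆) * x * f⁻¹ := by rw [h1]
    _ = f * y * (⁅y⁻¹, f⁻¹⁆ * x) * f⁻¹ := by group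
    _ = f * y * (x * ⁅y⁻¹, f⁻¹⁆) * f⁻¹ := by rw [hcx]
    _ = f * (y * x) * ⁅y⁻¹, f⁻¹⁆ * f⁻¹ := by group
    _ = f * (x * y) * ⁅y⁻¹, f⁻¹⁆ * f⁻¹ := by rw [hyx]
    _ = f * x * f⁻¹ * (f * (y * ⁅y⁻¹, f⁻¹⁆)) * f⁻¹ := by group
    _ = f * x * f⁻¹ * (y * f) * f⁻¹ := by rw [h1]
    _ = f * x * f⁻¹ * y := by group

/-- If `A0` is the only subgroup of order `r` in the centre of the `r`-group `R ≥ A0`, then `A0` is
central in `R` and every element normalizing `R` normalizes `A0`. -/
theorem unique_central [Finite G] (r : ℕ) [Fact r.Prime] (R A0 : Subgroup G) (hR : IsPGroup r R)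
    (hA0R : A0 ≤ R) (hA0 : Nat.card A0 = r)
    (huniq : ∀ U : Subgroup G, U ≤ R → R ≤ Subgroup.centralizer (U : Set G) → Nat.card U = r →
      U = A0) :
    R ≤ Subgroup.centralizer (A0 : Set G) ∧
      Subgroup.normalizer (R : Set G) ≤ Subgroup.normalizer (A0 : Set G) := by
  have hr : r.Prime := Fact.out
  have hcent : R ≤ Subgroup.centralizer (A0 : Set G) := by
    have hnt : Nontrivial R := by
      have h1 : 1 < Nat.card R := by
        have : Nat.card A0 ≤ Nat.card R := Subgroup.card_le_of_le hA0R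
        rw [hA0] at this
        exact lt_of_lt_of_le hr.one_lt this
      exact Finite.one_lt_card_iff_nontrivial.mp h1
    have hcn : Nontrivial (Subgroup.center R) := hR.center_nontrivial
    have hcp : IsPGroup r (Subgroup.center R) := hR.to_subgroup _
    have hdvd : r ∣ Nat.card (Subgroup.center R) := by
      obtain ⟨n, hn⟩ := IsPGroup.iff_card.mp hcp
      have h1 : 1 < Nat.card (Subgroup.center R) := Finite.one_lt_card_iff_nontrivial.mpr hcn
      rw [hn] at h1 ⊢
      have : n ≠ 0 := by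
        rintro rfl
        simp at h1
      exact dvd_pow_self r this
    obtain ⟨z, hz⟩ := exists_prime_orderOf_dvd_card' (G := Subgroup.center R) r hdvd
    have hzc : (z : R) ∈ Subgroup.center R := z.2
    have hzo : orderOf ((z : R) : G) = r := by
      rw [Subgroup.orderOf_coe, Subgroup.orderOf_coe]
      exact hz
    have hU : Subgroup.zpowers ((z : R) : G) = A0 := by
      apply huniq
      · rw [Subgroup.zpowers_le]
        exact (z : R).2
      · intro x hx
        rw [Subgroup.mem_centralizer_iff]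
        intro u hu
        obtain ⟨k, rfl⟩ := Subgroup.mem_zpowers_iff.mp hu
        have h1 : (⟨x, hx⟩ : R) * (z : R) = (z : R) * ⟨x, hx⟩ :=
          (Subgroup.mem_center_iff.mp hzc) ⟨x, hx⟩
        have h2 : x * ((z : R) : G) = ((z : R) : G) * x := congrArg Subtype.val h1
        have h3 : Commute x ((z : R) : G) := h2
        exact (h3.zpow_right k).eq.symm
      · rw [Nat.card_zpowers, hzo]
    rw [← hU]
    intro x hx
    rw [Subgroup.mem_centralizer_iff]
    intro u hu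
    obtain ⟨k, rfl⟩ := Subgroup.mem_zpowers_iff.mp hu
    have h1 : (⟨x, hx⟩ : R) * (z : R) = (z : R) * ⟨x, hx⟩ :=
      (Subgroup.mem_center_iff.mp hzc) ⟨x, hx⟩
    have h2 : x * ((z : R) : G) = ((z : R) : G) * x := congrArg Subtype.val h1
    have h3 : Commute x ((z : R) : G) := h2
    exact (h3.zpow_right k).eq.symm
  refine ⟨hcent, ?_⟩
  intro g hg
  apply Cfsg.Agent.Lib.Helper35.BG.mem_normalizer_of_map_conj_eq
  apply huniq
  · rintro _ ⟨a, ha, rfl⟩
    exact (Subgroup.mem_normalizer_iff.mp hg a).mp (hA0R ha)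
  · intro x hx
    rw [Subgroup.mem_centralizer_iff]
    rintro _ ⟨a, ha, rfl⟩
    have hx' : g⁻¹ * x * g ∈ R := by
      have h1 := (Subgroup.mem_normalizer_iff.mp (Subgroup.inv_mem _ hg) x).mp hx
      simpa using h1
    have h1 : a * (g⁻¹ * x * g) = (g⁻¹ * x * g) * a :=
      (Subgroup.mem_centralizer_iff.mp (hcent hx')) a ha
    show (MulAut.conj g) a * x = x * (MulAut.conj g) a
    rw [MulAut.conj_apply]
    calc g * a * g⁻¹ * x = g * (a * (g⁻¹ * x * g)) * g⁻¹ := by group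
      _ = g * ((g⁻¹ * x * g) * a) * g⁻¹ := by rw [h1]
      _ = x * (g * a * g⁻¹) := by group
  · rw [Cfsg.Agent.Lib.Helper35.BG.card_map_conj, hA0]

/-- A complement `F` of the normal Hall subgroup `K` of the solvable group `L` containing `Y` and
normalizing a given `Y`-invariant Sylow `r`-subgroup `T` of `K`. -/
theorem exists_compl_ge_normalizer [Finite G] (L K T Y : Subgroup G) (hsolv : Group.IsSolvable ↥L)
    (hKL : K ≤ L) (hLK : L ≤ Subgroup.normalizer (K : Set G))
    (hHall : (Nat.card K).Coprime (K.relIndex L)) (r : ℕ) [Fact r.Prime]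
    (hT : Cfsg.Agent.Lib.Helper46.IsSylowIn r T K)
    (hYL : Y ≤ L) (hYT : Y ≤ Subgroup.normalizer (T : Set G))
    (hYc : (Nat.card Y).Coprime (Nat.card K)) :
    ∃ F : Subgroup G, IsComplIn F K L ∧ Y ≤ F ∧ F ≤ Subgroup.normalizer (T : Set G) := by
  obtain ⟨NT, hNT⟩ : ∃ NT : Subgroup G, NT = L ⊓ Subgroup.normalizer (T : Set G) := ⟨_, rfl⟩
  obtain ⟨π, hπ⟩ : ∃ π : Set ℕ, π = {p | p.Prime ∧ ¬ p ∣ Nat.card K} := ⟨_, rfl⟩
  have hNTL : NT ≤ L := hNT ▸ inf_le_left
  have hNTT : NT ≤ Subgroup.normalizer (T : Set G) := hNT ▸ inf_le_right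
  have hsolvNT : Group.IsSolvable ↥NT :=
    Group.isSolvable_of_isSolvable_injective (Subgroup.inclusion_injective hNTL)
  have hYπ : ∀ p : ℕ, p.Prime → p ∣ Nat.card Y → p ∈ π := by
    intro p hp hd
    rw [hπ]
    refine ⟨hp, fun hd' => ?_⟩
    exact hp.one_lt.ne' (Nat.eq_one_of_dvd_coprimes hYc hd hd')
  have hYNT : Y ≤ NT := hNT ▸ le_inf hYL hYT
  obtain ⟨F, hF, hYF⟩ :=
    Cfsg.Agent.Lib.Helper67.BG.exists_piHallOf_ge π NT hsolvNT Y hYNT hYπ
  have hFL : F ≤ L := hF.1.trans hNTL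
  have hFT : F ≤ Subgroup.normalizer (T : Set G) := hF.1.trans hNTT
  have hcopFK : (Nat.card F).Coprime (Nat.card K) := by
    apply Nat.coprime_of_dvd
    intro p hp h1 h2
    have := hF.2.1 p hp h1
    rw [hπ] at this
    exact this.2 h2
  -- Frattini
  have hfrat : ∀ l ∈ L, ∃ k ∈ K, k⁻¹ * l ∈ NT := by
    intro l hl
    obtain ⟨k, hk, hkn⟩ := Cfsg.Agent.Lib.Helper74.BG.frattini_arg hT (hLK hl)
    refine ⟨k, hk, ?_⟩
    rw [hNT]
    exact Subgroup.mem_inf.mpr ⟨L.mul_mem (L.inv_mem (hKL hk)) hl, hkn⟩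
  have hdvd : K.relIndex L ∣ Nat.card NT := by
    have : (K.subgroupOf L).Normal := Subgroup.normal_subgroupOf_of_le_normalizer hLK
    have h1 : NT.subgroupOf L ⊔ K.subgroupOf L = ⊤ := by
      rw [eq_top_iff]
      rintro ⟨l, hl⟩ -
      obtain ⟨k, hk, hkn⟩ := hfrat l hl
      have h2 : (⟨l, hl⟩ : L) = ⟨k, hKL hk⟩ * ⟨k⁻¹ * l, hNTL hkn⟩ := by
        apply Subtype.ext
        simp
      rw [h2]
      exact Subgroup.mul_mem _ (Subgroup.mem_sup_right (Subgroup.mem_subgroupOf.mpr hk))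
        (Subgroup.mem_sup_left (Subgroup.mem_subgroupOf.mpr hkn))
    have h2 : (K.subgroupOf L).relIndex (NT.subgroupOf L ⊔ K.subgroupOf L) =
        (K.subgroupOf L).relIndex (NT.subgroupOf L) := Subgroup.relIndex_sup_right _ _
    rw [h1, Subgroup.relIndex_top_right] at h2
    have h3 : (K.subgroupOf L).relIndex (NT.subgroupOf L) = K.relIndex NT :=
      Subgroup.relIndex_subgroupOf hNTL
    have h4 : K.relIndex L = K.relIndex NT := by
      show (K.subgroupOf L).index = _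
      rw [h2, h3]
    rw [h4]
    exact Subgroup.relIndex_dvd_card K NT
  have hdvdF : K.relIndex L ∣ Nat.card F := by
    have e1 : Nat.card F * F.relIndex NT = Nat.card NT :=
      Cfsg.Agent.Lib.Helper35.BG.card_mul_relIndex' hF.1
    rw [← e1] at hdvd
    have hc : (K.relIndex L).Coprime (F.relIndex NT) := by
      apply Nat.coprime_of_dvd
      intro p hp h1 h2
      have hpπ : p ∈ π := by
        rw [hπ]
        refine ⟨hp, fun hd' => ?_⟩
        exact hp.one_lt.ne' (Nat.eq_one_of_dvd_coprimes hHall hd' h1)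
      exact hF.2.2 p hp hpπ h2
    exact hc.dvd_of_dvd_mul_right hdvd
  have hsup : F ⊔ K = L := by
    apply Subgroup.eq_of_le_of_card_ge (sup_le hFL hKL)
    have e1 : Nat.card K * K.relIndex L = Nat.card L :=
      Cfsg.Agent.Lib.Helper35.BG.card_mul_relIndex' hKL
    rw [← e1]
    apply Nat.le_of_dvd Nat.card_pos
    apply Nat.Coprime.mul_dvd_of_dvd_of_dvd hHall
    · exact Subgroup.card_dvd_of_le le_sup_right
    · exact hdvdF.trans (Subgroup.card_dvd_of_le le_sup_left)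
  refine ⟨F, ⟨hFL, hKL, ?_, ?_⟩, hYF, hFT⟩
  · exact disjoint_iff.mp (Subgroup.disjoint_of_coprime_natCard hcopFK)
  · intro m hm
    rw [← hsup] at hm
    have h1 : (↑(F ⊔ K) : Set G) = (F : Set G) * (K : Set G) :=
      Subgroup.coe_mul_of_left_le_normalizer_right F K (hFL.trans hLK)
    have h2 : m ∈ (F : Set G) * (K : Set G) := by
      rw [← h1]
      exact hm
    obtain ⟨a, ha, b, hb, rfl⟩ := Set.mem_mul.mp h2
    exact ⟨a, ha, b, hb, rfl⟩

end Cfsg.Agent.Lib.Helper41.BG12
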