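import Mathlib
import Cfsg.Prelude.Def_OddOrderLocal
import Cfsg.Statements.S1350
import Cfsg.Statements.S1408
import Cfsg.Statements.S1414
import Cfsg.Statements.S1417
import Cfsg.Statements.S1418
import Cfsg.Statements.S1422
import Cfsg.Statements.S1423
import Cfsg.Statements.S1426
import Cfsg.Agent.Lib.Helper24.PRank
import Cfsg.Agent.Lib.Helper24.ElemAb
import Cfsg.Agent.Lib.Helper90.SylowCount
import Cfsg.Agent.Lib.Helper41.BG.Tau12Supply

/-!
The "L-side" of B&G 13.12 (S1430 campaign), hedge copy by helper41 of helper24's `tau12_Lside`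
(same statement): with `A0 := C_A(Y)` of order `r`, `N(A0) ≤ M ≤ C(A0)` and a nonabelian
`r`-subgroup of `N(A)`, a contradiction.  Ending via S1426 + S1423 (helper24's note 2190).
-/

set_option autoImplicit false

namespace Cfsg.Agent.Lib.Helper41.BG12

open Cfsg
open scoped commutatorElement Pointwise

universe u

variable {G : Type u} [Group G]

theorem ne_bot_of_not_comm {P : Subgroup G} (h : ¬ IsMulCommutative P) : P ≠ ⊥ := by
  rintro rfl
  apply h
  exact ⟨⟨fun a b => Subsingleton.elim _ _⟩⟩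

theorem comm_of_card_prime {Y : Subgroup G} {q : ℕ} (hq : q.Prime) (hY : Nat.card Y = q) :
    ∀ x ∈ Y, ∀ y ∈ Y, x * y = y * x := by
  have : Fact q.Prime := ⟨hq⟩
  have hc : IsCyclic Y := isCyclic_of_prime_card hY
  intro x hx y hy
  have h := (IsCyclic.commGroup (α := Y)).mul_comm ⟨x, hx⟩ ⟨y, hy⟩
  exact congrArg Subtype.val h

theorem pow_of_card_prime {Y : Subgroup G} {q : ℕ} (hY : Nat.card Y = q) :
    ∀ y ∈ Y, y ^ q = 1 := by
  intro y hy
  have h : (⟨y, hy⟩ : Y) ^ Nat.card Y = 1 := pow_card_eq_one'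
  rw [hY] at h
  exact congrArg Subtype.val h

theorem orderOf_conj' (a y : G) : orderOf (a * y * a⁻¹) = orderOf y := by
  have := MulEquiv.orderOf_eq (MulAut.conj a) y
  simpa [MulAut.conj_apply] using this

theorem commutator_self_le (F : Subgroup G) : ⁅F, F⁆ ≤ F :=
  Subgroup.commutator_le.mpr (fun a ha b hb => by
    rw [commutatorElement_def]
    exact F.mul_mem (F.mul_mem (F.mul_mem ha hb) (F.inv_mem ha)) (F.inv_mem hb))

theorem conj_mem_commutator_self (L : Subgroup G) {l d : G} (hl : l ∈ L) (hd : d ∈ ⁅L, L⁆) :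
    l * d * l⁻¹ ∈ ⁅L, L⁆ := by
  have h1 : l * d * l⁻¹ = ⁅l, d⁆ * d := by
    rw [commutatorElement_def]; group
  rw [h1]
  exact Subgroup.mul_mem _ (Subgroup.commutator_mem_commutator hl (commutator_self_le L hd)) hd

/-- A nontrivial finite `p`-subgroup has a central element of order `p`. -/
theorem exists_central_order [Finite G] {p : ℕ} [Fact p.Prime] {S : Subgroup G}
    (hS : IsPGroup p S) (hne : S ≠ ⊥) :
    ∃ z ∈ S, orderOf z = p ∧ ∀ x ∈ S, x * z = z * x := by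
  have hnt : Nontrivial S := (Subgroup.nontrivial_iff_ne_bot S).mpr hne
  have hcn : Nontrivial (Subgroup.center S) := hS.center_nontrivial
  have hcp : IsPGroup p (Subgroup.center S) := hS.to_subgroup _
  have hdvd : p ∣ Nat.card (Subgroup.center S) := by
    obtain ⟨n, hn⟩ := IsPGroup.iff_card.mp hcp
    have h1 : 1 < Nat.card (Subgroup.center S) := Finite.one_lt_card_iff_nontrivial.mpr hcn
    rw [hn] at h1 ⊢
    have : n ≠ 0 := by
      rintro rfl
      simp at h1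
    exact dvd_pow_self p this
  obtain ⟨z, hz⟩ := exists_prime_orderOf_dvd_card' (G := Subgroup.center S) p hdvd
  refine ⟨((z : S) : G), (z : S).2, ?_, ?_⟩
  · rw [Subgroup.orderOf_coe, Subgroup.orderOf_coe]
    exact hz
  · intro x hx
    have h1 : (⟨x, hx⟩ : S) * (z : S) = (z : S) * ⟨x, hx⟩ :=
      (Subgroup.mem_center_iff.mp z.2) ⟨x, hx⟩
    exact congrArg Subtype.val h1

/-- In a subgroup of `q`-rank one, a `q`-subgroup has at most one subgroup of order `q`. -/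
theorem eq_of_card_prime_of_rank_one [Finite G] {q : ℕ} [Fact q.Prime] {M S Y₁ Y₂ : Subgroup G}
    (hrk : PRankLE q 1 M) (hSM : S ≤ M) (hS : IsPGroup q S) (h1 : Y₁ ≤ S) (h2 : Y₂ ≤ S)
    (hc1 : Nat.card Y₁ = q) (hc2 : Nat.card Y₂ = q) : Y₁ = Y₂ := by
  have hq : q.Prime := Fact.out
  have hne : S ≠ ⊥ := by
    rintro rfl
    have : Y₁ = ⊥ := le_bot_iff.mp h1
    rw [this, Subgroup.card_bot] at hc1
    exact hq.one_lt.ne hc1
  obtain ⟨z, hzS, hzo, hzc⟩ := exists_central_order hS hne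
  have key : ∀ Y : Subgroup G, Y ≤ S → Nat.card Y = q → Y = Subgroup.zpowers z := by
    intro Y hYS hYc
    have hcomm := Cfsg.Agent.Lib.Helper24.sup_zpowers_comm Y z (comm_of_card_prime hq hYc)
      (fun e he => (hzc e (hYS he)).symm)
    have hpow := Cfsg.Agent.Lib.Helper24.sup_zpowers_pow Y z q (comm_of_card_prime hq hYc)
      (pow_of_card_prime hYc) (fun e he => (hzc e (hYS he)).symm)
      (by rw [← hzo]; exact pow_orderOf_eq_one z)
    have hle : Y ⊔ Subgroup.zpowers z ≤ M :=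
      sup_le (hYS.trans hSM) ((Subgroup.zpowers_le.mpr hzS).trans hSM)
    have hcard := (Cfsg.Agent.Lib.Helper24.pRankLE_subgroup_iff q 1 M).mp hrk _ hle hcomm hpow
    rw [pow_one] at hcard
    have h3 : Y = Y ⊔ Subgroup.zpowers z :=
      Subgroup.eq_of_le_of_card_ge le_sup_left (by rw [hYc]; exact hcard)
    have h4 : Subgroup.zpowers z ≤ Y := by
      rw [h3]; exact le_sup_right
    exact (Subgroup.eq_of_le_of_card_ge h4 (by rw [Nat.card_zpowers, hzo, hYc])).symm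
  rw [key Y₁ h1 hc1, key Y₂ h2 hc2]

/-- A normal `r`-complement, seen inside the ambient group: an `r'`-subgroup `O` of `H` containing
every `r'`-element of `H`. -/
theorem normal_compl_props [Finite G] {r : ℕ} [Fact r.Prime] (H : Subgroup G)
    (hn : HasNormalPComplement r ↥H) :
    ∃ O : Subgroup G, O ≤ H ∧ (Nat.card O).Coprime r ∧
      ∀ x ∈ H, (orderOf x).Coprime r → x ∈ O := by
  obtain ⟨P, N, hN, hc⟩ := hn
  have hr : r.Prime := Fact.out
  have hidxN : N.index = Nat.card (P : Subgroup H) := hc.symm.index_eq_card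
  have hNcop : (Nat.card N).Coprime r := by
    have h1 : (P : Subgroup H).index = Nat.card N := hc.index_eq_card
    rw [← h1]
    exact ((Nat.Prime.coprime_iff_not_dvd hr).mpr P.not_dvd_index).symm
  refine ⟨N.map H.subtype, Subgroup.map_subtype_le _, ?_, ?_⟩
  · rw [Subgroup.card_map_of_injective H.subtype_injective]
    exact hNcop
  · intro x hx hox
    refine ⟨⟨x, hx⟩, ?_, rfl⟩
    have hN' : N.Normal := hN
    rw [SetLike.mem_coe, ← QuotientGroup.eq_one_iff]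
    have h1 : orderOf ((QuotientGroup.mk' N) ⟨x, hx⟩) ∣ orderOf (⟨x, hx⟩ : H) :=
      orderOf_map_dvd (QuotientGroup.mk' N) _
    rw [Subgroup.orderOf_mk] at h1
    have h2 : orderOf ((QuotientGroup.mk' N) ⟨x, hx⟩) ∣ Nat.card (H ⧸ N) := orderOf_dvd_natCard _
    have h3 : Nat.card (H ⧸ N) = N.index := rfl
    rw [h3, hidxN] at h2
    obtain ⟨k, hk⟩ := IsPGroup.iff_card.mp (P.isPGroup')
    rw [hk] at h2
    have h4 : orderOf ((QuotientGroup.mk' N) ⟨x, hx⟩) = 1 :=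
      Nat.eq_one_of_dvd_coprimes (Nat.Coprime.pow_right k hox) h1 h2
    exact orderOf_eq_one_iff.mp h4

theorem eq_one_of_pgroup_of_coprime [Finite G] {r : ℕ} {A O : Subgroup G}
    (hA : IsPGroup r A) {x : G} (hxA : x ∈ A) (hxO : x ∈ O) (hO : (Nat.card O).Coprime r) :
    x = 1 := by
  obtain ⟨k, hk⟩ := hA ⟨x, hxA⟩
  have hk' : x ^ r ^ k = 1 := congrArg Subtype.val hk
  have h1 : orderOf x ∣ r ^ k := orderOf_dvd_of_pow_eq_one hk'
  have h2 : orderOf x ∣ Nat.card O := by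
    have := orderOf_dvd_natCard (⟨x, hxO⟩ : O)
    rwa [Subgroup.orderOf_mk] at this
  have h3 : orderOf x = 1 := Nat.eq_one_of_dvd_coprimes (Nat.Coprime.pow_right k hO) h2 h1
  exact orderOf_eq_one_iff.mp h3

/-- The "(N)" step of 13.12: an elementary abelian subgroup `B ≤ M` of order `r ^ 2` (`r ∈ τ₂(M)`)
centralized by `Y ≤ E` of order `q ∈ τ₁(M)` forces `Y` to centralize `A`. -/
theorem tau1_centralizes_of_elab [Finite G] (hG : IsMinSimpleOddOrder G)
    (h1350 : type_of% (@Cfsg.CfsgFrozen.S1350 G _ _ hG))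
    (h1418 : type_of% (@Cfsg.CfsgFrozen.S1418 G _ _ hG))
    (M : Subgroup G) (hM : IsCoatom M) (E : Subgroup G) (hE : IsComplIn E (sigmaCore M) M)
    (r : ℕ) [Fact r.Prime] (hr : r ∈ tau2 M) (A : Subgroup G)
    (hA : A ≤ E ∧ IsElementaryAbelian r A ∧ Nat.card A = r ^ 2)
    (q : ℕ) [Fact q.Prime] (hq : q ∈ tau1 M) (Y : Subgroup G) (hYE : Y ≤ E)
    (hY : Nat.card Y = q)
    (B : Subgroup G) (hBM : B ≤ M) (hB : IsElementaryAbelian r B) (hB2 : Nat.card B = r ^ 2)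
    (hYB : Y ≤ Subgroup.centralizer (B : Set G)) : Y ≤ Subgroup.centralizer (A : Set G) := by
  have hr' : r.Prime := Fact.out
  have hq' : q.Prime := Fact.out
  obtain ⟨⟨hEN, hXA⟩, ⟨hCA, hMN, -⟩, -⟩ := h1418 M hM E hE r hr A hA
  have hHallσ := (h1350 M hM).1
  have hsolvM : Group.IsSolvable ↥M := hG.2.2.2 M hM.1
  have hEM : E ≤ M := hE.1
  obtain ⟨π, hπ⟩ : ∃ π : Set ℕ, π = {p | p.Prime ∧ ¬ p ∣ Nat.card (sigmaCore M)} := ⟨_, rfl⟩
  -- `E` is a Hall `π`-subgroup of `M`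
  have hEπ : IsPiHallOf π E M := by
    refine ⟨hEM, ?_, ?_⟩
    · intro p hp hd
      rw [hπ]
      refine ⟨hp, fun hd' => ?_⟩
      have hpσ : p ∈ sigma M := Cfsg.Agent.Lib.Helper67.BG.sigmaCore_isPi M p hp hd'
      apply hHallσ.2.2 p hp hpσ
      rw [Cfsg.Agent.Lib.Helper35.BG.relIndex_right_of_isComplIn hE]
      exact hd
    · intro p hp hpπ
      rw [Cfsg.Agent.Lib.Helper35.BG.relIndex_left_of_isComplIn hE]
      rw [hπ] at hpπ
      exact hpπ.2
  have hBπ : ∀ p : ℕ, p.Prime → p ∣ Nat.card B → p ∈ π := by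
    intro p hp hd
    rw [hB2] at hd
    have hpr : p = r := (Nat.prime_dvd_prime_iff_eq hp hr').mp (hp.dvd_of_dvd_pow hd)
    rw [hπ, hpr]
    exact ⟨hr', fun hd' => hr.2.1 (Cfsg.Agent.Lib.Helper67.BG.sigmaCore_isPi M r hr' hd')⟩
  obtain ⟨K, hK, hBK⟩ := Cfsg.Agent.Lib.Helper67.BG.exists_piHallOf_ge π M hsolvM B hBM hBπ
  obtain ⟨m, hm, hKm⟩ := Cfsg.Agent.Lib.Helper35.BG.exists_conj_of_isPiHallOf hsolvM hEπ hK
  -- `m⁻¹ B m = A`
  have hBE : ∀ b ∈ B, m⁻¹ * b * m ∈ E := by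
    intro b hb
    have h1 : b ∈ E.map (MulAut.conj m).toMonoidHom := hKm ▸ hBK hb
    obtain ⟨e, he, rfl⟩ := h1
    have h2 : m⁻¹ * ((MulAut.conj m).toMonoidHom e) * m = e := by
      simp [MulAut.conj_apply, mul_assoc]
    rw [h2]
    exact he
  have hBA : ∀ b ∈ B, m⁻¹ * b * m ∈ A := by
    intro b hb
    by_cases h1 : m⁻¹ * b * m = 1
    · rw [h1]; exact A.one_mem
    · have h2 : (m⁻¹ * b * m) ^ r = 1 := by
        have h3 : (m⁻¹ * b * m) ^ r = m⁻¹ * b ^ r * m := by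
          have := conj_pow (a := m⁻¹) (b := b) (i := r)
          simpa using this
        rw [h3, hB.2 b hb]
        group
      have h3 : orderOf (m⁻¹ * b * m) = r := orderOf_eq_prime h2 h1
      have h4 : Subgroup.zpowers (m⁻¹ * b * m) ≤ A := by
        apply hXA
        · rw [Subgroup.zpowers_le]
          exact hBE b hb
        · rw [Nat.card_zpowers, h3]
      exact h4 (Subgroup.mem_zpowers _)
  have hAB : ∀ a ∈ A, ∃ b ∈ B, a = m⁻¹ * b * m := by
    have h1 : B.map (MulAut.conj m⁻¹).toMonoidHom = A := by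
      apply Subgroup.eq_of_le_of_card_ge
      · rintro _ ⟨b, hb, rfl⟩
        have := hBA b hb
        simpa [MulAut.conj_apply] using this
      · rw [Cfsg.Agent.Lib.Helper35.BG.card_map_conj, hB2, hA.2.2]
    intro a ha
    rw [← h1] at ha
    obtain ⟨b, hb, rfl⟩ := ha
    exact ⟨b, hb, by simp [MulAut.conj_apply]⟩
  -- `m⁻¹ Y m` centralizes `A`, so lies in `E`
  have hY'C : ∀ y ∈ Y, m⁻¹ * y * m ∈ Subgroup.centralizer (A : Set G) := by
    intro y hy
    rw [Subgroup.mem_centralizer_iff]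
    intro a ha
    obtain ⟨b, hb, rfl⟩ := hAB a ha
    have h1 : b * y = y * b := (Subgroup.mem_centralizer_iff.mp (hYB hy)) b hb
    calc m⁻¹ * b * m * (m⁻¹ * y * m) = m⁻¹ * (b * y) * m := by group
      _ = m⁻¹ * (y * b) * m := by rw [h1]
      _ = m⁻¹ * y * m * (m⁻¹ * b * m) := by group
  have hY'E : ∀ y ∈ Y, m⁻¹ * y * m ∈ E := by
    intro y hy
    have h1 := hCA (hY'C y hy)
    rw [hMN] at h1
    exact h1
  -- Sylow `q`-subgroups of `E`
  have hYp : IsPGroup q Y := IsPGroup.of_card (n := 1) (by rw [hY, pow_one])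
  obtain ⟨Y', hY'⟩ : ∃ Y' : Subgroup G, Y' = Y.map (MulAut.conj m⁻¹).toMonoidHom := ⟨_, rfl⟩
  have hY'le : Y' ≤ E := by
    rw [hY']
    rintro _ ⟨y, hy, rfl⟩
    have := hY'E y hy
    simpa [MulAut.conj_apply] using this
  have hY'card : Nat.card Y' = q := by
    rw [hY', Cfsg.Agent.Lib.Helper35.BG.card_map_conj, hY]
  have hY'p : IsPGroup q Y' := IsPGroup.of_card (n := 1) (by rw [hY'card, pow_one])
  obtain ⟨S, hS, hYS⟩ := Cfsg.Agent.Lib.Helper35.BG.exists_isSylowIn_ge hYp hYE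
  obtain ⟨S', hS', hY'S'⟩ := Cfsg.Agent.Lib.Helper35.BG.exists_isSylowIn_ge hY'p hY'le
  obtain ⟨e, he, hSe⟩ := hS.exists_conj hS'
  have hYe : Y.map (MulAut.conj e).toMonoidHom ≤ S' := by
    rw [hSe]
    exact Subgroup.map_mono hYS
  have heq : Y.map (MulAut.conj e).toMonoidHom = Y' :=
    eq_of_card_prime_of_rank_one hq.2.2.2.2 (hS'.1.trans hEM)
      (Cfsg.Agent.Lib.Helper35.BG.sylIn_isPGroup hS') hYe hY'S'
      (by rw [Cfsg.Agent.Lib.Helper35.BG.card_map_conj, hY]) hY'card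
  -- conclusion
  intro y hy
  rw [Subgroup.mem_centralizer_iff]
  intro a ha
  have h1 : e * y * e⁻¹ ∈ Y' := by
    rw [← heq]
    exact ⟨y, hy, by simp [MulAut.conj_apply]⟩
  rw [hY'] at h1
  obtain ⟨y₁, hy₁, hy₁e⟩ := h1
  have h2 : e * y * e⁻¹ = m⁻¹ * y₁ * m := by
    rw [← hy₁e]
    simp [MulAut.conj_apply]
  have h3 : e * y * e⁻¹ ∈ Subgroup.centralizer (A : Set G) := by
    rw [h2]
    exact hY'C y₁ hy₁
  have heN : e ∈ Subgroup.normalizer (A : Set G) := hEN he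
  have h4 : e * a * e⁻¹ ∈ A := (Subgroup.mem_normalizer_iff.mp heN a).mp ha
  have h5 : e * a * e⁻¹ * (e * y * e⁻¹) = e * y * e⁻¹ * (e * a * e⁻¹) :=
    (Subgroup.mem_centralizer_iff.mp h3) _ h4
  calc a * y = e⁻¹ * (e * a * e⁻¹ * (e * y * e⁻¹)) * e := by group
    _ = e⁻¹ * (e * y * e⁻¹ * (e * a * e⁻¹)) * e := by rw [h5]
    _ = y * a := by group

/-- **The L-side of B&G 13.12** (same statement as `Helper24.BG31.tau12_Lside`). -/
theorem tau12_Lside [Finite G] (hG : IsMinSimpleOddOrder G)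
    (h1350 : type_of% (@Cfsg.CfsgFrozen.S1350 G _ _ hG))
    (h1408 : type_of% (@Cfsg.CfsgFrozen.S1408 G _ _ hG))
    (h1414 : type_of% (@Cfsg.CfsgFrozen.S1414 G _ _ hG))
    (_h1417 : type_of% (@Cfsg.CfsgFrozen.S1417 G _ _ hG))
    (h1418 : type_of% (@Cfsg.CfsgFrozen.S1418 G _ _ hG))
    (h1422 : type_of% (@Cfsg.CfsgFrozen.S1422 G _ _ hG))
    (h1423 : type_of% (@Cfsg.CfsgFrozen.S1423 G _ _ hG))
    (h1426 : type_of% (@Cfsg.CfsgFrozen.S1426 G _ _ hG))
    (M : Subgroup G) (hM : IsCoatom M) (E : Subgroup G) (hE : IsComplIn E (sigmaCore M) M)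
    (r : ℕ) [Fact r.Prime] (hr : r ∈ tau2 M) (A : Subgroup G)
    (hA : A ≤ E ∧ IsElementaryAbelian r A ∧ Nat.card A = r ^ 2)
    (q : ℕ) (hq : q ∈ tau1 M) (Y : Subgroup G) (hYE : Y ≤ E) (hY : Nat.card Y = q)
    (hX : Nat.card ↥(A ⊓ Subgroup.centralizer (Y : Set G)) = r)
    (hNX : Subgroup.normalizer ((A ⊓ Subgroup.centralizer (Y : Set G) : Subgroup G) : Set G) ≤ M)
    (hMX : M ≤ Subgroup.centralizer ((A ⊓ Subgroup.centralizer (Y : Set G) : Subgroup G) : Set G))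
    (P₀ : Subgroup G) (hP₀ : IsPGroup r P₀) (hP₀na : ¬ IsMulCommutative P₀)
    (hP₀N : P₀ ≤ Subgroup.normalizer (A : Set G)) : False := by
  have hr' : r.Prime := Fact.out
  have hq' : q.Prime := hq.1
  have hqF : Fact q.Prime := ⟨hq'⟩
  obtain ⟨⟨hEN, -⟩, ⟨-, -, hNM⟩, -⟩ := h1418 M hM E hE r hr A hA
  obtain ⟨A0, hA0⟩ : ∃ A0 : Subgroup G, A0 = A ⊓ Subgroup.centralizer (Y : Set G) := ⟨_, rfl⟩
  rw [← hA0] at hX hNX hMX
  have hEM : E ≤ M := hE.1
  have hAM : A ≤ M := hA.1.trans hEM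
  have hAp : IsPGroup r A := IsPGroup.of_card hA.2.2
  have hA_ne_bot : A ≠ ⊥ := by
    intro h
    have h1 := hA.2.2
    rw [h, Subgroup.card_bot] at h1
    have h2 : 1 < r ^ 2 := Nat.one_lt_pow (by norm_num) hr'.one_lt
    omega
  have hA_ne_top : A ≠ ⊤ := fun h => hM.1 (top_le_iff.mp (h ▸ hAM))
  have hP₀ne : P₀ ≠ ⊥ := ne_bot_of_not_comm hP₀na
  -- the coatom `L`
  obtain ⟨L, ⟨hL, hP₀L⟩, hLuniq⟩ := h1422 r P₀ hP₀ hP₀na
  have hLge : ∀ X : Subgroup G, P₀ ≤ X → X ≠ ⊤ → X ≤ L := by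
    intro X hPX hXt
    obtain ⟨L', hL', hXL'⟩ := Cfsg.Agent.Lib.Helper35.BG.exists_coatom_ge hXt
    have h1 := hLuniq L' ⟨hL', hPX.trans hXL'⟩
    rw [← h1]
    exact hXL'
  have hNAL : Subgroup.normalizer (A : Set G) ≤ L :=
    hLge _ hP₀N (Cfsg.Agent.Lib.Helper35.BG.normalizer_ne_top hG hA_ne_bot hA_ne_top)
  have hLM : L ≠ M := fun h => hNM (h ▸ hNAL)
  have hAL : A ≤ L := Subgroup.le_normalizer.trans hNAL
  have hYL : Y ≤ L := (hYE.trans hEN).trans hNAL
  -- `r ∈ σ(L)`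
  obtain ⟨S, hS, hP₀S⟩ := Cfsg.Agent.Lib.Helper35.BG.exists_isSylowIn_ge hP₀ hP₀L
  have hSne : S ≠ ⊥ := fun h => hP₀ne (le_bot_iff.mp (h ▸ hP₀S))
  have hSnt : S ≠ ⊤ := fun h => hL.1 (top_le_iff.mp (h ▸ hS.1))
  have hNSL : Subgroup.normalizer (S : Set G) ≤ L :=
    hLge _ (hP₀S.trans Subgroup.le_normalizer)
      (Cfsg.Agent.Lib.Helper35.BG.normalizer_ne_top hG hSne hSnt)
  have hrσ : r ∈ sigma L := by
    obtain ⟨S₀, hS₀⟩ := hS.exists_sylow
    refine ⟨hr', ?_, S₀, ?_⟩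
    · exact (Cfsg.Agent.Lib.Helper67.BG.dvd_card_of_isPGroup_ne_bot hP₀ hP₀ne).trans
        (Subgroup.card_dvd_of_le hP₀L)
    · rw [hS₀]
      exact hNSL
  have hrβ : r ∉ beta L := fun h => (h1408 M hM r hr.2.1 hr.2.2.1 hr.2.2.2).1 h.2
  -- `K = L_σ`
  have hKhall := (h1350 L hL).1
  have hKL : sigmaCore L ≤ L := Cfsg.Agent.Lib.Helper67.BG.sigmaCore_le L
  have hLK : L ≤ Subgroup.normalizer (sigmaCore L : Set G) :=
    Cfsg.Agent.Lib.Helper67.BG.sigmaCore_normalizer L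
  have hAK : A ≤ sigmaCore L := by
    apply Cfsg.Agent.Lib.Helper74.BG.le_of_isPiHallOf_of_normal hKhall hLK hAL
    intro p hp hd
    rw [hA.2.2] at hd
    have hpr : p = r := (Nat.prime_dvd_prime_iff_eq hp hr').mp (hp.dvd_of_dvd_pow hd)
    rw [hpr]
    exact hrσ
  obtain ⟨hncD, hncK, -⟩ := (h1414 L hL).2.2.2.2 r hr' hrσ.2.1 hrβ
  have hqr : q ≠ r := fun h => hr.2.2.2 (by rw [← h]; exact hq.2.2.2.2)
  have hYord : ∀ y ∈ Y, (orderOf y).Coprime r := by
    intro y hy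
    have h1 : orderOf y ∣ q := by
      rw [← hY]
      have := orderOf_dvd_natCard (⟨y, hy⟩ : Y)
      rwa [Subgroup.orderOf_mk] at this
    exact Nat.Coprime.coprime_dvd_left h1 ((Nat.coprime_primes hq' hr').mpr hqr)
  have hYnA : ¬ Y ≤ Subgroup.centralizer (A : Set G) := by
    intro h
    have h1 : A ≤ Subgroup.centralizer (Y : Set G) := Subgroup.le_centralizer_iff.mp h
    have h2 : A0 = A := by
      rw [hA0]
      exact inf_of_le_left h1
    rw [h2, hA.2.2] at hX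
    have h3 : r ^ 2 = r ^ 1 := by rw [hX, pow_one]
    have h4 := Nat.pow_right_injective hr'.two_le h3
    omega
  -- `q ∉ σ(L)`
  have hqσ : q ∉ sigma L := by
    intro hqs
    have hYK : Y ≤ sigmaCore L := by
      apply Cfsg.Agent.Lib.Helper74.BG.le_of_isPiHallOf_of_normal hKhall hLK hYL
      intro p hp hd
      rw [hY] at hd
      rw [(Nat.prime_dvd_prime_iff_eq hp hq').mp hd]
      exact hqs
    obtain ⟨O, -, hOcop, hOmem⟩ := normal_compl_props (sigmaCore L) hncK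
    apply hYnA
    intro y hy
    rw [Subgroup.mem_centralizer_iff]
    intro a ha
    have h1 : a * y * a⁻¹ ∈ O :=
      hOmem _ (Subgroup.mul_mem _ (Subgroup.mul_mem _ (hAK ha) (hYK hy))
        (Subgroup.inv_mem _ (hAK ha))) (by rw [orderOf_conj']; exact hYord y hy)
    have h2 : y⁻¹ ∈ O :=
      hOmem _ (Subgroup.inv_mem _ (hYK hy)) (by rw [orderOf_inv]; exact hYord y hy)
    have h3 : a * y * a⁻¹ * y⁻¹ ∈ O := O.mul_mem h1 h2
    have h4 : a * y * a⁻¹ * y⁻¹ ∈ A := by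
      have hyN : y ∈ Subgroup.normalizer (A : Set G) := hEN (hYE hy)
      have h5 : y * a⁻¹ * y⁻¹ ∈ A := (Subgroup.mem_normalizer_iff.mp hyN a⁻¹).mp (A.inv_mem ha)
      have h6 : a * y * a⁻¹ * y⁻¹ = a * (y * a⁻¹ * y⁻¹) := by group
      rw [h6]
      exact A.mul_mem ha h5
    have h6 : a * y * a⁻¹ * y⁻¹ = 1 := eq_one_of_pgroup_of_coprime hAp h4 h3 hOcop
    calc a * y = (a * y * a⁻¹ * y⁻¹) * (y * a) := by group
      _ = y * a := by rw [h6, one_mul]
  -- the `Y`-invariant Sylow `r`-subgroup `T` of `L_σ` over `A`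
  have hqK : ¬ q ∣ Nat.card (sigmaCore L) := fun h =>
    hqσ (Cfsg.Agent.Lib.Helper67.BG.sigmaCore_isPi L q hq' h)
  have hYp : IsPGroup q Y := IsPGroup.of_card (n := 1) (by rw [hY, pow_one])
  obtain ⟨T, hAT, hTK, hYT, hTcard⟩ :=
    Cfsg.Agent.Lib.Helper90.exists_invariant_sylow_ge Y (sigmaCore L) A hYp (hYL.trans hLK) hqK
      hAK hAp (hYE.trans hEN)
  have hT : Cfsg.Agent.Lib.Helper46.IsSylowIn r T (sigmaCore L) := ⟨hTK, hTcard⟩
  have hTp : IsPGroup r T := IsPGroup.of_card hTcard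
  -- the complement `F`
  have hsolvL : Group.IsSolvable ↥L := hG.2.2.2 L hL.1
  have hHallcop : (Nat.card (sigmaCore L)).Coprime ((sigmaCore L).relIndex L) :=
    Nat.coprime_of_dvd (fun p hp h1 h2 =>
      hKhall.2.2 p hp (Cfsg.Agent.Lib.Helper67.BG.sigmaCore_isPi L p hp h1) h2)
  have hYcop : (Nat.card Y).Coprime (Nat.card (sigmaCore L)) := by
    rw [hY]
    exact (Nat.Prime.coprime_iff_not_dvd hq').mpr hqK
  obtain ⟨F, hF, hYF, hFT⟩ :=
    exists_compl_ge_normalizer L (sigmaCore L) T Y hsolvL hKL hLK hHallcop r hT hYL hYT hYcop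
  have hFL : F ≤ L := hF.1
  have hFr : (Nat.card F).Coprime r := by
    rw [← Cfsg.Agent.Lib.Helper35.BG.relIndex_right_of_isComplIn hF]
    exact ((Nat.Prime.coprime_iff_not_dvd hr').mpr (hKhall.2.2 r hr' hrσ)).symm
  -- `[F,F]` centralizes `T`
  obtain ⟨O, -, hOcop, hOmem⟩ := normal_compl_props ⁅L, L⁆ hncD
  have hFFT : ⁅F, F⁆ ≤ Subgroup.centralizer (T : Set G) := by
    intro c hc
    have hcF : c ∈ F := commutator_self_le F hc
    have hcD : c ∈ ⁅L, L⁆ := Subgroup.commutator_mono hFL hFL hc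
    have hcord : (orderOf c).Coprime r := by
      have := orderOf_dvd_natCard (⟨c, hcF⟩ : F)
      rw [Subgroup.orderOf_mk] at this
      exact Nat.Coprime.coprime_dvd_left this hFr
    rw [Subgroup.mem_centralizer_iff]
    intro t ht
    have htL : t ∈ L := hKL (hTK ht)
    have h1 : t * c * t⁻¹ ∈ O :=
      hOmem _ (conj_mem_commutator_self L htL hcD) (by rw [orderOf_conj']; exact hcord)
    have h2 : c⁻¹ ∈ O := hOmem _ (Subgroup.inv_mem _ hcD) (by rw [orderOf_inv]; exact hcord)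
    have h3 : t * c * t⁻¹ * c⁻¹ ∈ O := O.mul_mem h1 h2
    have h4 : t * c * t⁻¹ * c⁻¹ ∈ T := by
      have hcN : c ∈ Subgroup.normalizer (T : Set G) := hFT hcF
      have h5 : c * t⁻¹ * c⁻¹ ∈ T := (Subgroup.mem_normalizer_iff.mp hcN t⁻¹).mp (T.inv_mem ht)
      have h6 : t * c * t⁻¹ * c⁻¹ = t * (c * t⁻¹ * c⁻¹) := by group
      rw [h6]
      exact T.mul_mem ht h5
    have h6 : t * c * t⁻¹ * c⁻¹ = 1 := eq_one_of_pgroup_of_coprime hTp h4 h3 hOcop
    calc t * c = (t * c * t⁻¹ * c⁻¹) * (c * t) := by group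
      _ = c * t := by rw [h6, one_mul]
  -- `F` normalizes `R = C_T(Y)`, whose centre has `A0` as only subgroup of order `r`
  have hFR := normalizes_fix F Y T hFT hYF hFFT
  have hA0A : A0 ≤ A := hA0 ▸ inf_le_left
  have hA0Y : A0 ≤ Subgroup.centralizer (Y : Set G) := hA0 ▸ inf_le_right
  have hA0R : A0 ≤ T ⊓ Subgroup.centralizer (Y : Set G) := le_inf (hA0A.trans hAT) hA0Y
  have hRp : IsPGroup r (T ⊓ Subgroup.centralizer (Y : Set G) : Subgroup G) :=
    hTp.to_le inf_le_left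
  have hCA0M : Subgroup.centralizer (A0 : Set G) ≤ M :=
    (Cfsg.Agent.Lib.Helper35.BG.centralizer_le_normalizer' A0).trans hNX
  have huniq : ∀ U : Subgroup G, U ≤ T ⊓ Subgroup.centralizer (Y : Set G) →
      (T ⊓ Subgroup.centralizer (Y : Set G) : Subgroup G) ≤ Subgroup.centralizer (U : Set G) →
      Nat.card U = r → U = A0 := by
    intro U hUR hRU hUc
    by_contra hne
    have hUne : U ≠ ⊥ := by
      intro h
      rw [h, Subgroup.card_bot] at hUc
      exact hr'.one_lt.ne hUc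
    obtain ⟨u, hu1⟩ := (Subgroup.ne_bot_iff_exists_ne_one).mp hUne
    have hu1' : (u : G) ≠ 1 := fun h => hu1 (Subtype.ext h)
    have hur : (u : G) ^ r = 1 := pow_of_card_prime hUc u u.2
    have huo : orderOf (u : G) = r := orderOf_eq_prime hur hu1'
    have hUz : Subgroup.zpowers (u : G) = U :=
      Subgroup.eq_of_le_of_card_ge (Subgroup.zpowers_le.mpr u.2)
        (by rw [Nat.card_zpowers, huo, hUc])
    have hucomm : ∀ e ∈ A0, (u : G) * e = e * u := by
      intro e he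
      exact (Subgroup.mem_centralizer_iff.mp (hRU (hA0R he))) u u.2
    have hBcomm := Cfsg.Agent.Lib.Helper24.sup_zpowers_comm A0 (u : G)
      (comm_of_card_prime hr' hX) hucomm
    have hBpow := Cfsg.Agent.Lib.Helper24.sup_zpowers_pow A0 (u : G) r
      (comm_of_card_prime hr' hX) (pow_of_card_prime hX) hucomm hur
    have huC : (u : G) ∈ Subgroup.centralizer (A0 : Set G) := by
      rw [Subgroup.mem_centralizer_iff]
      intro e he
      exact (hucomm e he).symm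
    have hBM : A0 ⊔ Subgroup.zpowers (u : G) ≤ M :=
      sup_le (hA0A.trans hAM) ((Subgroup.zpowers_le.mpr huC).trans hCA0M)
    have hB : IsElementaryAbelian r (A0 ⊔ Subgroup.zpowers (u : G)) :=
      ⟨Cfsg.Agent.Lib.Helper35.BG.isMulCommutative_subgroup_iff.mpr hBcomm, hBpow⟩
    have hBY : Y ≤ Subgroup.centralizer ((A0 ⊔ Subgroup.zpowers (u : G) : Subgroup G) : Set G) := by
      rw [Subgroup.le_centralizer_iff]
      exact sup_le hA0Y (Subgroup.zpowers_le.mpr ((Subgroup.mem_inf.mp (hUR u.2)).2))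
    have hlt : A0 < A0 ⊔ Subgroup.zpowers (u : G) := by
      apply lt_of_le_of_ne le_sup_left
      intro h
      have h1 : U ≤ A0 := by
        rw [← hUz, h]
        exact le_sup_right
      exact hne (Subgroup.eq_of_le_of_card_ge h1 (by rw [hX, hUc]))
    have hBp : IsPGroup r ↥(A0 ⊔ Subgroup.zpowers (u : G)) := by
      intro g
      exact ⟨1, Subtype.ext (by simpa using hBpow g g.2)⟩
    obtain ⟨k, hk⟩ := IsPGroup.iff_card.mp hBp
    have hcard_lt := Cfsg.Agent.Lib.Helper35.BG.card_lt_of_lt hlt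
    have hcard_le := (Cfsg.Agent.Lib.Helper24.pRankLE_subgroup_iff r 2 M).mp hr.2.2.1 _ hBM
      hBcomm hBpow
    rw [hX, hk] at hcard_lt
    rw [hk] at hcard_le
    have hk1 : 1 < k := by
      by_contra hk1
      have : k ≤ 1 := not_lt.mp hk1
      have h2 : r ^ k ≤ r ^ 1 := Nat.pow_le_pow_right hr'.pos this
      rw [pow_one] at h2
      omega
    have hk2 : k ≤ 2 := (Nat.pow_le_pow_iff_right hr'.one_lt).mp hcard_le
    have hk3 : k = 2 := by omega
    rw [hk3] at hk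
    exact hYnA (tau1_centralizes_of_elab hG h1350 h1418 M hM E hE r hr A hA q hq Y hYE hY
      _ hBM hB hk hBY)
  obtain ⟨-, hNR⟩ := unique_central r (T ⊓ Subgroup.centralizer (Y : Set G)) A0 hRp hA0R hX huniq
  have hFC : F ≤ Subgroup.centralizer (A0 : Set G) := ((hFR.trans hNR).trans hNX).trans hMX
  have hA0CF : A0 ≤ Subgroup.centralizer (F : Set G) := Subgroup.le_centralizer_iff.mp hFC
  have hA0K : A0 ≤ sigmaCore L := hA0A.trans hAK
  have hA0der : A0 ≤ ⁅sigmaCore L, sigmaCore L⁆ :=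
    (le_inf hA0K hA0CF).trans (h1426 L hL F hF).1
  obtain ⟨P⟩ : Nonempty (Sylow r ↥(sigmaCore L)) := inferInstance
  have h23 := h1423 L hL r hrσ A0 (hA0K.trans hKL) hX P (Or.inr hA0der)
  have hML : M ≤ L := hMX.trans h23.1.1
  exact hLM ((hM.le_iff_eq hL.1).mp hML)

end Cfsg.Agent.Lib.Helper41.BG12
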